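import Mathlib
import Cfsg.Agent.S2420

/-!
Degrees of the alternating sums of flag characters of `GL_n`.
-/

set_option autoImplicit false
set_option linter.unusedSectionVars false

namespace CfsgLib.KnownSimple.UnipotentChar

open Matrix

/-- The `q`-integer. -/
def qNat (q r : ℕ) : ℕ := ∑ l ∈ Finset.range r, q ^ l

/-- The `q`-factorial. -/
def qFac (q r : ℕ) : ℕ := ∏ j ∈ Finset.range r, qNat q (j + 1)

theorem qNat_add (q k m : ℕ) : qNat q (k + m) = qNat q k + q ^ k * qNat q m := by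
  rw [qNat, qNat, qNat, Finset.sum_range_add, Finset.mul_sum]
  simp only [pow_add]

theorem qNat_strictMono {q : ℕ} (hq : 0 < q) : StrictMono (qNat q) := strictMono_nat_of_lt_succ fun r => by
  rw [qNat_add q r 1]
  have : 0 < q ^ r * qNat q 1 := by simp [qNat, hq]
  omega

theorem qFac_pos {q : ℕ} (hq : 0 < q) (r : ℕ) : 0 < qFac q r :=
  Finset.prod_pos fun j _ => (Nat.zero_le _).trans_lt (qNat_strictMono hq (Nat.succ_pos j))

/-- The falling `q`-factorial. -/
def qFall (q a j : ℕ) : ℕ := ∏ k ∈ Finset.range j, qNat q (a - k)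

theorem qFall_eq_zero {q a j : ℕ} (h : a < j) : qFall q a j = 0 :=
  Finset.prod_eq_zero (Finset.mem_range.2 h) (by simp [qNat])

theorem qFac_eq_mul (q : ℕ) {a j : ℕ} (h : j ≤ a) : qFac q a = qFac q (a - j) * qFall q a j := by
  induction j with
  | zero => simp [qFall]
  | succ j ih =>
    rw [ih (by omega), qFall, qFall, Finset.prod_range_succ _ j,
      show a - j = a - (j + 1) + 1 by omega, qFac, Finset.prod_range_succ, ← qFac]
    ring

theorem qFall_eq_prod (q a j : ℕ) :
    (qFall q a j : ℂ) * (q : ℂ) ^ (j.choose 2) = ∏ k ∈ Finset.range j, ((qNat q a : ℂ) - qNat q k) := by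
  induction j with
  | zero => simp [qFall]
  | succ j ih =>
    rw [Finset.prod_range_succ, ← ih, Nat.choose_succ_succ, Nat.choose_one_right, qFall,
      Finset.prod_range_succ, ← qFall]
    by_cases h : j ≤ a
    · have e : (qNat q a : ℂ) = qNat q j + (q : ℂ) ^ j * qNat q (a - j) := by
        conv_lhs => rw [show a = j + (a - j) by omega, qNat_add]
        push_cast
        ring
      rw [e]
      push_cast
      ring
    · rw [qFall_eq_zero (by omega)]
      simp

theorem sum_choose_two (n : ℕ) : ∑ j : Fin n, (j.val).choose 2 = n * (n - 1) * (n - 2) / 6 := by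
  rw [Fin.sum_univ_eq_sum_range (fun j => j.choose 2)]
  have h : ∀ m, ∑ j ∈ Finset.range m, j.choose 2 = m.choose 3 := by
    intro m
    induction m with
    | zero => simp
    | succ m ih => rw [Finset.sum_range_succ, ih, Nat.choose_succ_succ m 2, add_comm]
  rw [h, Nat.choose_eq_descFactorial_div_factorial]
  simp [Nat.descFactorial, Nat.factorial]
  ring_nf

/-- The alternating sum of the products of falling `q`-factorials. -/
theorem sum_qFall {n : ℕ} (q : ℕ) (a : Fin n → ℕ) :
    (∑ κ : Equiv.Perm (Fin n), ((Equiv.Perm.sign κ : ℤ) : ℂ) * ∏ i, (qFall q (a i) (κ i).val : ℂ)) *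
        (q : ℂ) ^ (n * (n - 1) * (n - 2) / 6) =
      ∏ i : Fin n, ∏ j ∈ Finset.Ioi i, ((qNat q (a j) : ℂ) - qNat q (a i)) := by
  classical
  set P : Fin n → Polynomial ℂ := fun j => ∏ k ∈ Finset.range j.val, (Polynomial.X - Polynomial.C (qNat q k : ℂ))
  have hPm : ∀ j, (P j).Monic := fun j => Polynomial.monic_prod_of_monic _ _ fun k _ => Polynomial.monic_X_sub_C _
  have hPd : ∀ j, (P j).natDegree = j := fun j => by
    rw [Polynomial.natDegree_prod_of_monic _ _ fun k _ => Polynomial.monic_X_sub_C _]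
    simp only [Polynomial.natDegree_X_sub_C, Finset.sum_const, Finset.card_range, smul_eq_mul, mul_one]
  rw [← Matrix.det_vandermonde, Matrix.det_eval_matrixOfPolynomials_eq_det_vandermonde _ P hPd hPm,
    ← Matrix.det_transpose, Matrix.det_apply', Finset.sum_mul]
  refine Finset.sum_congr rfl fun κ _ => ?_
  rw [mul_assoc]
  congr 1
  rw [← sum_choose_two n, ← Finset.prod_pow_eq_pow_sum, ← Equiv.prod_comp κ (fun j => (q : ℂ) ^ (j.val).choose 2),
    ← Finset.prod_mul_distrib]
  refine Finset.prod_congr rfl fun i _ => ?_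
  simp only [Matrix.transpose_apply, Matrix.of_apply, P, Polynomial.eval_prod, Polynomial.eval_sub,
    Polynomial.eval_X, Polynomial.eval_C]
  exact qFall_eq_prod q (a i) (κ i).val

variable {F : Type*} [Field F] [Fintype F] {n : ℕ}

theorem sum_shift {ν : Fin n → ℕ} (hsum : ∑ i, ν i = n) (κ : Equiv.Perm (Fin n))
    (h : ∀ i, (κ i).val ≤ ν i + i.val) : ∑ i, (ν i + i.val - (κ i).val) = n := by
  have h1 : ∑ i, (ν i + i.val - (κ i).val) + ∑ i, (κ i).val = ∑ i, (ν i + i.val) := by
    rw [← Finset.sum_add_distrib]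
    exact Finset.sum_congr rfl fun i _ => Nat.sub_add_cancel (h i)
  rw [Equiv.sum_comp κ (fun i => (i.val)), Finset.sum_add_distrib, hsum] at h1
  omega

/-- The degree formula. -/
theorem degree_formula {q : ℕ} (hq : Fintype.card F = q) (ν : Fin n → ℕ) (hsum : ∑ i, ν i = n) :
    Cfsg.unipotentCharacterGL n F ν 1 * (q : ℂ) ^ (n * (n - 1) * (n - 2) / 6) *
        ∏ i : Fin n, (qFac q (ν i + i.val) : ℂ) =
      (qFac q n : ℂ) * ∏ i : Fin n, ∏ j ∈ Finset.Ioi i,
        ((qNat q (ν j + j.val) : ℂ) - qNat q (ν i + i.val)) := by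
  classical
  have key : Cfsg.unipotentCharacterGL n F ν 1 * ∏ i : Fin n, (qFac q (ν i + i.val) : ℂ) =
      (qFac q n : ℂ) * ∑ κ : Equiv.Perm (Fin n),
        ((Equiv.Perm.sign κ : ℤ) : ℂ) * ∏ i, (qFall q (ν i + i.val) (κ i).val : ℂ) := by
    rw [Cfsg.unipotentCharacterGL, Finset.sum_mul, Finset.mul_sum]
    refine Finset.sum_congr rfl fun κ _ => ?_
    split_ifs with h
    · have hidx := Cfsg.Agent.S2420.result hq (fun i => ν i + i.val - (κ i).val) (sum_shift hsum κ h)
      change Nat.card (GL (Fin n) F ⧸ Cfsg.parabolicGL n F (fun i => ν i + i.val - (κ i).val)) *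
        (∏ i : Fin n, qFac q (ν i + i.val - (κ i).val)) = qFac q n at hidx
      have e1 : Cfsg.fixedPointCharacter (Cfsg.parabolicGL n F fun i => ν i + i.val - (κ i).val) (1 : GL (Fin n) F) =
          (Nat.card (GL (Fin n) F ⧸ Cfsg.parabolicGL n F (fun i => ν i + i.val - (κ i).val)) : ℂ) := by
        exact congrArg Nat.cast (Nat.card_congr (Equiv.subtypeUnivEquiv fun x => one_smul (GL (Fin n) F) x))
      rw [e1, ← hidx, Nat.cast_mul, Nat.cast_prod,
        Finset.prod_congr rfl fun i (_ : i ∈ Finset.univ) => congrArg Nat.cast (qFac_eq_mul q (h i))]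
      push_cast
      rw [Finset.prod_mul_distrib]
      ring
    · push Not at h
      obtain ⟨i, hi⟩ := h
      rw [Finset.prod_eq_zero (f := fun i => (qFall q (ν i + i.val) (κ i).val : ℂ)) (Finset.mem_univ i)
        (by simp [qFall_eq_zero hi])]
      simp
  rw [mul_right_comm, key, mul_assoc, sum_qFall]

/-- The degree is positive. -/
theorem degree_pos (ν : Fin n → ℕ) (hmono : Monotone ν) (hsum : ∑ i, ν i = n) :
    0 < (Cfsg.unipotentCharacterGL n F ν 1).re := by
  set q := Fintype.card F with hq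
  have hq0 : 0 < q := Fintype.card_pos
  have h := degree_formula (F := F) hq.symm ν hsum
  obtain ⟨A, hA, eA⟩ : ∃ A : ℝ, 0 < A ∧ (q : ℂ) ^ (n * (n - 1) * (n - 2) / 6) *
      ∏ i : Fin n, (qFac q (ν i + i.val) : ℂ) = A :=
    ⟨(q : ℝ) ^ (n * (n - 1) * (n - 2) / 6) * ∏ i : Fin n, (qFac q (ν i + i.val) : ℝ),
      mul_pos (by positivity) (Finset.prod_pos fun i _ => Nat.cast_pos.2 (qFac_pos hq0 _)), by push_cast; rfl⟩
  obtain ⟨B, hB, eB⟩ : ∃ B : ℝ, 0 < B ∧ (qFac q n : ℂ) * ∏ i : Fin n, ∏ j ∈ Finset.Ioi i,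
      ((qNat q (ν j + j.val) : ℂ) - qNat q (ν i + i.val)) = B := by
    refine ⟨(qFac q n : ℝ) * ∏ i : Fin n, ∏ j ∈ Finset.Ioi i,
      ((qNat q (ν j + j.val) : ℝ) - qNat q (ν i + i.val)), mul_pos (Nat.cast_pos.2 (qFac_pos hq0 _))
        (Finset.prod_pos fun i _ => Finset.prod_pos fun j hj => sub_pos.2 (Nat.cast_lt.2 ?_)), by push_cast; rfl⟩
    have hij := Finset.mem_Ioi.1 hj
    exact qNat_strictMono hq0 (add_lt_add_of_le_of_lt (hmono hij.le) hij)
  rw [mul_assoc, eA, eB] at h
  have h' := congrArg Complex.re h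
  rw [Complex.re_mul_ofReal, Complex.ofReal_re] at h'
  exact (pos_iff_pos_of_mul_pos (h' ▸ hB)).2 hA

end CfsgLib.KnownSimple.UnipotentChar
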