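import Mathlib
import Cfsg.Agent.Lib.KnownSimple.UnipotentChar.Orbits
import Cfsg.Agent.Lib.KnownSimple.UnipotentChar.Cauchy
import Cfsg.Agent.Lib.KnownSimple.UnipotentChar.Degree
import Cfsg.Agent.Lib.CharTheory.Decomp

/-!
The alternating sums of flag characters of `GL_n` are orthonormal irreducible characters.
-/

set_option autoImplicit false

namespace CfsgLib.KnownSimple.UnipotentChar

variable {F : Type*} [Field F] [Fintype F] [DecidableEq F] {n : ℕ}

theorem isCharacter_fixedPoint {G : Type*} [Group G] [Finite G] (H : Subgroup G) :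
    Cfsg.IsCharacter G (Cfsg.fixedPointCharacter H) :=
  CharTheory.isCharacter_card_fixedBy (G ⧸ H)

theorem strictMono_shift {ν : Fin n → ℕ} (hmono : Monotone ν) : StrictMono fun i : Fin n => ν i + i.val :=
  fun _ _ h => add_lt_add_of_le_of_lt (hmono h.le) h

/-- Inner products. -/
theorem classInner_unipotent (ν ν' : Fin n → ℕ) (hmono : Monotone ν) (hsum : ∑ i, ν i = n)
    (hmono' : Monotone ν') (hsum' : ∑ i, ν' i = n) :
    Cfsg.classInner (Cfsg.unipotentCharacterGL n F ν) (Cfsg.unipotentCharacterGL n F ν') =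
      if ν = ν' then 1 else 0 := by
  classical
  have hfun : ∀ ρ : Fin n → ℕ, Cfsg.unipotentCharacterGL n F ρ = ∑ κ : Equiv.Perm (Fin n),
      (if ∀ i : Fin n, (κ i).val ≤ ρ i + i.val then ((Equiv.Perm.sign κ : ℤ) : ℂ) else 0) •
        Cfsg.fixedPointCharacter (Cfsg.parabolicGL n F fun i => ρ i + i.val - (κ i).val) := fun ρ => by
    funext g
    simp only [Cfsg.unipotentCharacterGL, Finset.sum_apply, Pi.smul_apply, smul_eq_mul]
    refine Finset.sum_congr rfl fun κ _ => ?_
    split_ifs <;> simp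
  have hiff : ((fun i : Fin n => ν i + i.val) = fun i => ν' i + i.val) ↔ ν = ν' :=
    ⟨fun h => funext fun i => Nat.add_right_cancel (congrFun h i), fun h => by rw [h]⟩
  have key := congrArg (fun z : ℤ => (z : ℂ))
    (alternating_margins (strictMono_shift hmono) (strictMono_shift hmono'))
  simp only [hiff, Int.cast_ite, Int.cast_one, Int.cast_zero, Int.cast_sum, Int.cast_mul, Int.cast_natCast] at key
  rw [hfun ν, hfun ν', ← key, CharTheory.classInner_sum_left]
  refine Finset.sum_congr rfl fun κ _ => ?_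
  rw [CharTheory.classInner_sum_right]
  refine Finset.sum_congr rfl fun κ' _ => ?_
  rw [CharTheory.classInner_smul_left, CharTheory.classInner_smul_right]
  by_cases h1 : ∀ i : Fin n, (κ i).val ≤ ν i + i.val
  · by_cases h2 : ∀ i : Fin n, (κ' i).val ≤ ν' i + i.val
    · rw [if_pos h1, if_pos h2, if_pos ⟨h1, h2⟩,
        classInner_parabolic _ _ (sum_shift hsum κ h1) (sum_shift hsum' κ' h2), map_intCast]
      ring
    · rw [if_neg h2, if_neg fun h : _ ∧ _ => h2 h.2]
      simp
  · rw [if_neg h1, if_neg fun h : _ ∧ _ => h1 h.1]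
    simp

/-- The alternating sum is an irreducible character. -/
theorem isIrrCharacter_unipotent (ν : Fin n → ℕ) (hmono : Monotone ν) (hsum : ∑ i, ν i = n) :
    Cfsg.IsIrrCharacter (GL (Fin n) F) (Cfsg.unipotentCharacterGL n F ν) := by
  classical
  refine CharTheory.isIrrCharacter_of_norm_one ?_
    (by rw [classInner_unipotent ν ν hmono hsum hmono hsum, if_pos rfl]) (degree_pos ν hmono hsum)
  letI := Fintype.ofFinite (Cfsg.IrrCharacter (GL (Fin n) F))
  rw [CharTheory.isGeneralizedCharacter_iff_exists_sum]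
  have hm : ∀ κ : Equiv.Perm (Fin n), ∃ m : Cfsg.IrrCharacter (GL (Fin n) F) → ℤ,
      Cfsg.fixedPointCharacter (Cfsg.parabolicGL n F fun i => ν i + i.val - (κ i).val) =
        ∑ ψ, (m ψ : ℂ) • (ψ : GL (Fin n) F → ℂ) := fun κ =>
    CharTheory.isGeneralizedCharacter_iff_exists_sum.1
      (CharTheory.IsCharacter.isGeneralizedCharacter (isCharacter_fixedPoint _))
  choose m hm using hm
  refine ⟨fun ψ => ∑ κ : Equiv.Perm (Fin n),
    if ∀ i : Fin n, (κ i).val ≤ ν i + i.val then (Equiv.Perm.sign κ : ℤ) * m κ ψ else 0, funext fun g => ?_⟩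
  simp only [Cfsg.unipotentCharacterGL, Finset.sum_apply, Pi.smul_apply, smul_eq_mul, Int.cast_sum, Finset.sum_mul]
  rw [Finset.sum_comm]
  refine Finset.sum_congr rfl fun κ _ => ?_
  split_ifs with h
  · rw [hm κ]
    simp only [Finset.sum_apply, Pi.smul_apply, smul_eq_mul, Finset.mul_sum, Int.cast_mul, mul_assoc]
  · simp

/-- Different partitions give different characters. -/
theorem unipotent_injective {ν ν' : Fin n → ℕ} (hmono : Monotone ν) (hsum : ∑ i, ν i = n)
    (hmono' : Monotone ν') (hsum' : ∑ i, ν' i = n)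
    (h : Cfsg.unipotentCharacterGL n F ν = Cfsg.unipotentCharacterGL n F ν') : ν = ν' := by
  by_contra hne
  have h1 := classInner_unipotent (F := F) ν ν hmono hsum hmono hsum
  have h2 := classInner_unipotent (F := F) ν ν' hmono hsum hmono' hsum'
  rw [if_pos rfl] at h1
  rw [if_neg hne, ← h, h1] at h2
  exact one_ne_zero h2

end CfsgLib.KnownSimple.UnipotentChar
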